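import Cfsg.Agent.M24.Orders

/-!
A dodecad with three marked points.
-/

set_option autoImplicit false

namespace Cfsg.Agent.M24

open scoped Pointwise

theorem exists_map_dodecad_three {d : Finset GolayPt} (hd : d ∈ dodecads) {p q r : GolayPt}
    (hp : p ∈ d) (hq : q ∈ d) (hr : r ∈ d) (hpq : p ≠ q) (hpr : p ≠ r) (hqr : q ≠ r) :
    ∃ g ∈ M24, g • toSet dod0 = d ∧ g (pt 0) = p ∧ g (pt 1) = q ∧ g (pt 2) = r := by
  obtain ⟨g, hg, rfl⟩ := exists_map_dodecad hd
  obtain ⟨a, ha, rfl⟩ := exists_pt g p
  obtain ⟨b, hb, rfl⟩ := exists_pt g q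
  obtain ⟨c, hc, rfl⟩ := exists_pt g r
  rw [mem_smul_toSet g ha] at hp
  rw [mem_smul_toSet g hb] at hq
  rw [mem_smul_toSet g hc] at hr
  have hab : pt a ≠ pt b := fun e => hpq (by rw [e])
  have hac : pt a ≠ pt c := fun e => hpr (by rw [e])
  have hbc : pt b ≠ pt c := fun e => hqr (by rw [e])
  obtain ⟨u, hu, h⟩ := chain_map (dodFive.take 3) [dod0] [pt a, pt b, pt c] (by decide +kernel)
    (by simp [dodFive]) (by simp [hab, hac, hbc]) (by decide +kernel) (by
      intro k h1 h2 m hm
      rw [List.mem_singleton] at hm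
      subst hm
      have : ∀ k (h : k < (dodFive.take 3).length), dod0.testBit ((dodFive.take 3)[k]).1 = true := by
        decide +kernel
      rw [this k h1]
      have hk : k = 0 ∨ k = 1 ∨ k = 2 := by simp at h2; omega
      rcases hk with rfl | rfl | rfl
      · simpa [ix_pt ha] using hp
      · simpa [ix_pt hb] using hq
      · simpa [ix_pt hc] using hr)
  exact ⟨g * u, M24.mul_mem hg hu.1, by rw [mul_smul, hu.2 dod0 List.mem_cons_self],
    congrArg g (h 0 (by decide +kernel) (by simp)), congrArg g (h 1 (by decide +kernel) (by simp)),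
    congrArg g (h 2 (by decide +kernel) (by simp))⟩

/-- layer data -/
def dodThreeOutL0P0 : List (List ℕ) := [[0, 1, 2]]

/-- layer data -/
def dodThreeOutL1P0 : List (List ℕ) := [[1, 2], [2], [0, 2]]

/-- layer data -/
def dodThreeOutL2P0 : List (List ℕ) := [[], [0, 1, 2], [], [], []]

/-- An orbit certificate. -/
def dodThreeOut : Cfsg.Agent.M24.Cert where
  fx := [4, 2, 1, 340831]
  gens := [796134455581813252778404696041064480, 970254902120350598020240965873371168, 313451266620471430272303061907212320]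
  x0 := 32
  sp := [dodThreeOutL0P0, dodThreeOutL1P0, dodThreeOutL2P0]

theorem dodThreeOut_ok :
    listCheck [32, 128, 1024, 2048, 16384, 32768, 131072, 524288, 1048576, 2097152, 4194304, 8388608] dodThreeOut = true := by decide +kernel

end Cfsg.Agent.M24
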