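import Cfsg.Agent.M24.ClassData

/-!
Classes of elements of order two and three in `Cfsg.M24`.
-/

set_option autoImplicit false

namespace Cfsg.Agent.M24

open scoped Pointwise

theorem t242_ok : towerOk [] 2 t242 = true := by decide +kernel
theorem t243_ok : towerOk [] 3 t243 = true := by decide +kernel
theorem t242_class : classOk [] 2 t242 t242Reps t242Cert = true := by decide +kernel
theorem t243_class : classOk [] 3 t243 t243Reps t243Cert = true := by decide +kernel

theorem exists_conj_order_two {g : Equiv.Perm GolayPt} (hg : g ∈ M24) (h : orderOf g = 2) :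
    ∃ c ∈ M24, ∃ r ∈ t242Reps, autB r = true ∧ c * toPerm r * c⁻¹ = g := by
  have : Fact (Nat.Prime 2) := ⟨Nat.prime_two⟩
  have hc : Nat.card (fixAll []) = 244823040 := by rw [fixAll_nil, card_M24]
  have hl : t242.length = 10 := by decide +kernel
  obtain ⟨c, hc', r, hr, ha, e⟩ := exists_conj_rep t242_ok t242_class (by rw [hc, hl]; norm_num)
    (by rw [hc, hl]; norm_num) (g := g) (by rw [fixAll_nil]; exact hg) h
  exact ⟨c, hc'.1, r, hr, ha, e⟩

theorem exists_conj_order_three {g : Equiv.Perm GolayPt} (hg : g ∈ M24) (h : orderOf g = 3) :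
    ∃ c ∈ M24, ∃ r ∈ t243Reps, autB r = true ∧ c * toPerm r * c⁻¹ = g := by
  have : Fact (Nat.Prime 3) := ⟨Nat.prime_three⟩
  have hc : Nat.card (fixAll []) = 244823040 := by rw [fixAll_nil, card_M24]
  have hl : t243.length = 3 := by decide +kernel
  obtain ⟨c, hc', r, hr, ha, e⟩ := exists_conj_rep t243_ok t243_class (by rw [hc, hl]; norm_num)
    (by rw [hc, hl]; norm_num) (g := g) (by rw [fixAll_nil]; exact hg) h
  exact ⟨c, hc'.1, r, hr, ha, e⟩

/-- Number of fixed points of a packed permutation. -/
def fixCount (r : ℕ) : ℕ := (List.range 24).countP fun i => papp r i == i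

/-- Mask of the fixed points of a packed permutation. -/
def fixMask (r : ℕ) : ℕ := listMask ((List.range 24).filter fun i => papp r i == i)


theorem fix_eq {r : ℕ} (h : okPerm r = true) :
    (Finset.univ.filter fun p => toPerm r p = p) = toSet (fixMask r) := by
  ext p
  rw [Finset.mem_filter, mem_toSet, fixMask, testBit_listMask, List.mem_filter, toPerm_apply h]
  simp only [Finset.mem_univ, true_and, List.mem_range, ix_lt, beq_iff_eq]
  constructor
  · intro e
    have := congrArg ix e
    rwa [ix_pt (okPerm_lt h (ix_lt p))] at this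
  · intro e; rw [e, pt_ix]

theorem card_fix_rep {r : ℕ} (h : okPerm r = true) (c : Equiv.Perm GolayPt) :
    (Finset.univ.filter fun p => (c * toPerm r * c⁻¹) p = p).card = pc (fixMask r) := by
  rw [card_fix_conj, fix_eq h, card_toSet]

theorem fix_conj_mem {r : ℕ} (h : okPerm r = true) {c : Equiv.Perm GolayPt} (hc : c ∈ M24)
    (ho : inCode (fixMask r) = true ∧ pc (fixMask r) = 8) :
    (Finset.univ.filter fun p => (c * toPerm r * c⁻¹) p = p) ∈ octads := by
  have e : (Finset.univ.filter fun p => (c * toPerm r * c⁻¹) p = p) = c • toSet (fixMask r) := by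
    ext y
    rw [← fix_eq h, ← Finset.inv_smul_mem_iff, Finset.mem_filter, Finset.mem_filter, Equiv.Perm.smul_def]
    simp [Equiv.Perm.inv_def, Equiv.eq_symm_apply]
  rw [e]
  refine (smul_mem_octads hc).2 (mem_octads_iff.2 ?_)
  rw [toMask_toSet (inCode_lt ho.1)]
  exact ⟨ho.1, ho.2⟩

end Cfsg.Agent.M24
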