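import Cfsg.Agent.M24.Code
import Cfsg.Prelude.Def_Sporadic_a

/-!
Closure properties of the Leech set.
-/

set_option autoImplicit false

namespace Cfsg.Agent.M24

open scoped symmDiff Pointwise

/-- The class of `m` modulo four. -/
def lcls (x : GolayPt → ℤ) (m : ℤ) : Finset GolayPt := Finset.univ.filter fun i => x i ≡ m [ZMOD 4]

/-- A reduced form of the defining conditions. -/
def LGood (x : GolayPt → ℤ) (m : ℤ) : Prop :=
  (∀ i, x i ≡ m [ZMOD 2]) ∧ (∑ i, x i ≡ 4 * m [ZMOD 8]) ∧
    lcls x m ∈ supports (golayCode : Set (GolayPt → ZMod 2))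

theorem mem_lcls {x : GolayPt → ℤ} {m : ℤ} {i : GolayPt} : i ∈ lcls x m ↔ x i % 4 = m % 4 := by
  rw [lcls, Finset.mem_filter]; exact ⟨fun h => h.2, fun h => ⟨Finset.mem_univ _, h⟩⟩

theorem sup_symmDiff {A B : Finset GolayPt} (hA : A ∈ supports (golayCode : Set (GolayPt → ZMod 2)))
    (hB : B ∈ supports (golayCode : Set (GolayPt → ZMod 2))) :
    A ∆ B ∈ supports (golayCode : Set (GolayPt → ZMod 2)) := by
  rw [mem_supports_iff] at hA hB
  rw [← toSet_toMask A, ← toSet_toMask B, ← toSet_xor, mem_supports_iff,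
    toMask_toSet (Nat.xor_lt_two_pow (toMask_lt _) (toMask_lt _))]
  exact inCode_xor hA hB

theorem sup_empty : (∅ : Finset GolayPt) ∈ supports (golayCode : Set (GolayPt → ZMod 2)) := by
  rw [mem_supports_iff]; decide +kernel

theorem sup_univ : (Finset.univ : Finset GolayPt) ∈ supports (golayCode : Set (GolayPt → ZMod 2)) := by
  rw [mem_supports_iff]; decide +kernel

theorem sup_compl {A : Finset GolayPt} (hA : A ∈ supports (golayCode : Set (GolayPt → ZMod 2))) :
    Aᶜ ∈ supports (golayCode : Set (GolayPt → ZMod 2)) := by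
  have e : Aᶜ = A ∆ Finset.univ := by ext; simp [Finset.mem_symmDiff]
  rw [e]; exact sup_symmDiff hA sup_univ

theorem card_mod_four {A : Finset GolayPt} (hA : A ∈ supports (golayCode : Set (GolayPt → ZMod 2))) :
    A.card % 4 = 0 := by
  rw [mem_supports_iff] at hA
  have h := pc_mem_of_inCode hA
  rw [← card_eq] at h
  simp only [List.mem_cons, List.not_mem_nil, or_false] at h
  omega

theorem inter_even {A B : Finset GolayPt} (hA : A ∈ supports (golayCode : Set (GolayPt → ZMod 2)))
    (hB : B ∈ supports (golayCode : Set (GolayPt → ZMod 2))) : (A ∩ B).card % 2 = 0 := by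
  have h := card_mod_four (sup_symmDiff hA hB)
  have e : A ∆ B = (A ∪ B) \ (A ∩ B) := by ext; simp [Finset.mem_symmDiff]; tauto
  rw [e, Finset.card_sdiff_of_subset Finset.inter_subset_union] at h
  have := Finset.card_union_add_card_inter A B
  have hle : (A ∩ B).card ≤ (A ∪ B).card := Finset.card_le_card Finset.inter_subset_union
  have := card_mod_four hA
  have := card_mod_four hB
  omega

theorem mem_leechSet_iff {x : GolayPt → ℤ} : x ∈ leechSet ↔ ∃ m, LGood x m := by
  refine ⟨fun ⟨m, h1, h2, h3⟩ => ⟨m, h1, h2, h3 m⟩, fun ⟨m, h1, h2, h3⟩ => ⟨m, h1, h2, fun k => ?_⟩⟩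
  have hp : ∀ i, x i % 2 = m % 2 := h1
  by_cases hk : k % 2 = m % 2
  · by_cases hk4 : k % 4 = m % 4
    · refine Eq.subst (motive := fun S => S ∈ supports (golayCode : Set (GolayPt → ZMod 2))) ?_ (h3)
      ext i; rw [mem_lcls, Finset.mem_filter]; simp only [Finset.mem_univ, true_and]; unfold Int.ModEq; omega
    · refine Eq.subst (motive := fun S => S ∈ supports (golayCode : Set (GolayPt → ZMod 2))) ?_ (sup_compl h3)
      ext i
      have := hp i
      rw [Finset.mem_compl, mem_lcls, Finset.mem_filter]; simp only [Finset.mem_univ, true_and]; unfold Int.ModEq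
      omega
  · refine Eq.subst (motive := fun S => S ∈ supports (golayCode : Set (GolayPt → ZMod 2))) ?_ (sup_empty)
    ext i
    have := hp i
    rw [Finset.mem_filter]; simp only [Finset.mem_univ, true_and, Finset.notMem_empty, false_iff, iff_false]; unfold Int.ModEq
    omega

theorem good_zero : LGood 0 0 := by
  refine ⟨fun i => by simp [Int.ModEq], by simp [Int.ModEq], ?_⟩
  refine Eq.subst (motive := fun S => S ∈ supports (golayCode : Set (GolayPt → ZMod 2))) ?_ (sup_univ)
  ext i; simp [mem_lcls]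

theorem good_add {x y : GolayPt → ℤ} {m n : ℤ} (hx : LGood x m) (hy : LGood y n) :
    LGood (x + y) (m + n) := by
  obtain ⟨x1, x2, x3⟩ := hx
  obtain ⟨y1, y2, y3⟩ := hy
  refine ⟨fun i => (x1 i).add (y1 i), ?_, ?_⟩
  · simp only [Pi.add_apply, Finset.sum_add_distrib, mul_add]; exact x2.add y2
  · refine Eq.subst (motive := fun S => S ∈ supports (golayCode : Set (GolayPt → ZMod 2))) ?_ (sup_compl (sup_symmDiff x3 y3))
    ext i
    have a : x i % 2 = m % 2 := x1 i
    have b : y i % 2 = n % 2 := y1 i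
    simp only [Finset.mem_compl, Finset.mem_symmDiff, mem_lcls, Pi.add_apply]
    omega

theorem good_neg {x : GolayPt → ℤ} {m : ℤ} (hx : LGood x m) : LGood (-x) (-m) := by
  obtain ⟨x1, x2, x3⟩ := hx
  refine ⟨fun i => (x1 i).neg, ?_, ?_⟩
  · simp only [Pi.neg_apply, Finset.sum_neg_distrib, mul_neg]; exact x2.neg
  · refine Eq.subst (motive := fun S => S ∈ supports (golayCode : Set (GolayPt → ZMod 2))) ?_ (x3)
    ext i
    simp only [mem_lcls, Pi.neg_apply]
    omega

theorem good_sign {x : GolayPt → ℤ} {m : ℤ} (hx : LGood x m) {c : Finset GolayPt}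
    (hc : c ∈ supports (golayCode : Set (GolayPt → ZMod 2))) :
    LGood (fun i => if i ∈ c then -x i else x i) m := by
  obtain ⟨x1, x2, x3⟩ := hx
  have hp : ∀ i, x i % 2 = m % 2 := x1
  refine ⟨fun i => ?_, ?_, ?_⟩
  · show (if i ∈ c then -x i else x i) % 2 = m % 2
    have := hp i
    split <;> omega
  · have hsplit : ∀ (f : GolayPt → ℤ), ∑ i, f i = (∑ i ∈ c, f i) + ∑ i ∈ cᶜ, f i := fun f =>
      (Finset.sum_add_sum_compl c f).symm
    have e1 : ∑ i, (if i ∈ c then -x i else x i) = -(∑ i ∈ c, x i) + ∑ i ∈ cᶜ, x i := by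
      rw [hsplit, ← Finset.sum_neg_distrib]
      congr 1
      · exact Finset.sum_congr rfl fun i hi => if_pos hi
      · exact Finset.sum_congr rfl fun i hi => if_neg (Finset.mem_compl.1 hi)
    rw [e1]
    rw [hsplit] at x2
    -- the part supported on `c` is divisible by four
    have h4 : (∑ i ∈ c, x i) ≡ ∑ i ∈ c, (if i ∈ lcls x m then m else m + 2) [ZMOD 4] := by
      rw [Int.modEq_iff_dvd, ← Finset.sum_sub_distrib]
      refine Finset.dvd_sum fun i _ => ?_
      have := hp i
      simp only [mem_lcls]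
      split <;> omega
    rw [Finset.sum_ite, Finset.sum_const, Finset.sum_const, nsmul_eq_mul, nsmul_eq_mul] at h4
    have ec : (c.filter fun i => i ∈ lcls x m) = c ∩ lcls x m := by ext; simp
    have hsum := Finset.card_filter_add_card_filter_not (s := c) (fun i => i ∈ lcls x m)
    have he := inter_even hc x3
    rw [← ec] at he
    have h0 := card_mod_four hc
    obtain ⟨a, ha⟩ : ∃ a : ℕ, (c.filter fun i => i ∈ lcls x m).card = 2 * a := ⟨(c.filter fun i => i ∈ lcls x m).card / 2, by omega⟩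
    obtain ⟨b, hb⟩ : ∃ b : ℕ, (c.filter fun i => ¬ i ∈ lcls x m).card = 2 * b := ⟨(c.filter fun i => ¬ i ∈ lcls x m).card / 2, by omega⟩
    obtain ⟨d, hd⟩ : ∃ d : ℕ, a + b = 2 * d := ⟨(a + b) / 2, by omega⟩
    rw [ha, hb] at h4
    have hz : ((2 * a : ℕ) : ℤ) * m + ((2 * b : ℕ) : ℤ) * (m + 2) = 4 * (d * m + b) := by
      have : (a : ℤ) + b = 2 * d := by exact_mod_cast hd
      push_cast; linear_combination 2 * m * this
    rw [hz] at h4
    simp only [Int.ModEq] at h4 x2 ⊢
    omega
  · rcases Int.emod_two_eq_zero_or_one m with hm | hm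
    · refine Eq.subst (motive := fun S => S ∈ supports (golayCode : Set (GolayPt → ZMod 2))) ?_ (x3)
      ext i
      have := hp i
      simp only [mem_lcls]
      split <;> omega
    · refine Eq.subst (motive := fun S => S ∈ supports (golayCode : Set (GolayPt → ZMod 2))) ?_ (sup_symmDiff x3 hc)
      ext i
      have := hp i
      simp only [Finset.mem_symmDiff, mem_lcls]
      by_cases hi : i ∈ c <;> simp [hi] <;> omega

theorem good_perm {x : GolayPt → ℤ} {m : ℤ} (hx : LGood x m) {σ : Equiv.Perm GolayPt}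
    (hσ : ∀ A, A ∈ supports (golayCode : Set (GolayPt → ZMod 2)) →
      σ⁻¹ • A ∈ supports (golayCode : Set (GolayPt → ZMod 2))) :
    LGood (fun i => x (σ i)) m := by
  obtain ⟨x1, x2, x3⟩ := hx
  refine ⟨fun i => x1 (σ i), by rwa [Equiv.sum_comp σ x], ?_⟩
  refine Eq.subst (motive := fun S => S ∈ supports (golayCode : Set (GolayPt → ZMod 2))) ?_ (hσ _ x3)
  ext i
  rw [Finset.mem_inv_smul_finset_iff, Equiv.Perm.smul_def, mem_lcls, mem_lcls]

/-- The Leech set as a subgroup. -/
def leechSub : AddSubgroup (GolayPt → ℤ) where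
  carrier := leechSet
  zero_mem' := mem_leechSet_iff.2 ⟨0, good_zero⟩
  add_mem' := fun ha hb => by
    obtain ⟨m, h⟩ := mem_leechSet_iff.1 ha
    obtain ⟨n, h'⟩ := mem_leechSet_iff.1 hb
    exact mem_leechSet_iff.2 ⟨m + n, good_add h h'⟩
  neg_mem' := fun ha => by
    obtain ⟨m, h⟩ := mem_leechSet_iff.1 ha
    exact mem_leechSet_iff.2 ⟨-m, good_neg h⟩

theorem mem_leechLattice_iff {x : GolayPt → ℤ} : x ∈ leechLattice ↔ ∃ m, LGood x m := by
  have e : leechLattice = leechSub :=
    le_antisymm ((AddSubgroup.closure_le (K := leechSub)).2 fun _ h => h)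
      (fun y h => AddSubgroup.subset_closure h)
  rw [e]
  exact mem_leechSet_iff

end Cfsg.Agent.M24
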