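import Cfsg.Agent.M24.MaxOct
import Cfsg.Agent.M24.MaxDuad
import Cfsg.Agent.M24.MaxTriad
import Cfsg.Agent.M24.MaxDpair
import Cfsg.Agent.M24.Trans

/-!
Maximal stabilisers in `Cfsg.M24`.
-/

set_option autoImplicit false

namespace Cfsg.Agent.M24

open scoped Pointwise

/-- Key of a small set. -/
def smallKey (m : ℕ) : ℕ :=
  ((List.range 24).filter fun i => m.testBit i).foldl (fun a i => 25 * a + (i + 1)) 0

/-- Inverse of `smallKey` on sets of size at most three. -/
def smallUnkey (n : ℕ) : ℕ :=
  [n % 25, n / 25 % 25, n / 625].foldl (fun a d => if d = 0 then a else a ||| 2 ^ (d - 1)) 0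

/-- All two-element sets. -/
def duadL : List ℕ := (List.range 24).flatMap fun a => (List.range a).map fun b => 2 ^ a ||| 2 ^ b

/-- All three-element sets. -/
def triadL : List ℕ :=
  (List.range 24).flatMap fun a => (List.range a).flatMap fun b =>
    (List.range b).map fun c => 2 ^ a ||| 2 ^ b ||| 2 ^ c

/-- The complementary dodecad containing the first point. -/
def pairCanon (m : ℕ) : ℕ := if m.testBit 0 then m else m ^^^ 16777215

/-- One dodecad from each complementary pair. -/
def pairL : List ℕ := dodL.filter fun m => m.testBit 0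

theorem duadL_mem : ∀ a < 24, ∀ b < a, 2 ^ a ||| 2 ^ b ∈ duadL := fun a ha b hb => by
  simp only [duadL, List.mem_flatMap, List.mem_map, List.mem_range]
  exact ⟨a, ha, b, hb, rfl⟩

theorem exists_duad {s : Finset GolayPt} (hs : s.card = 2) : ∃ m ∈ duadL, toSet m = s := by
  obtain ⟨x, y, hxy, rfl⟩ := Finset.card_eq_two.1 hs
  have e : ∀ u v : GolayPt, toSet (2 ^ ix u ||| 2 ^ ix v) = {u, v} := fun u v => by
    rw [toSet_or, toSet_two_pow (ix_lt u), toSet_two_pow (ix_lt v), pt_ix, pt_ix]; rfl
  rcases Nat.lt_or_gt_of_ne (fun h => hxy (ix_injective h)) with h | h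
  · exact ⟨_, duadL_mem _ (ix_lt y) _ h, by rw [e, Finset.pair_comm]⟩
  · exact ⟨_, duadL_mem _ (ix_lt x) _ h, e x y⟩

theorem exists_triad {s : Finset GolayPt} (hs : s.card = 3) : ∃ m ∈ triadL, toSet m = s := by
  classical
  have h3 : (s.image ix).card = 3 := by rw [Finset.card_image_of_injective _ ix_injective, hs]
  obtain ⟨a, b, c, hab, hac, hbc, he⟩ := Finset.card_eq_three.1 h3
  have hlt : ∀ n ∈ s.image ix, n < 24 := fun n hn => by
    obtain ⟨u, -, rfl⟩ := Finset.mem_image.1 hn; exact ix_lt u
  rw [he] at hlt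
  have ha := hlt a (by simp); have hb := hlt b (by simp); have hc := hlt c (by simp)
  have key : ∀ a b c, c < b → b < a → a < 24 → s.image ix = {a, b, c} → ∃ m ∈ triadL, toSet m = s := by
    intro a b c h1 h2 h3 he
    refine ⟨2 ^ a ||| 2 ^ b ||| 2 ^ c, ?_, ?_⟩
    · simp only [triadL, List.mem_flatMap, List.mem_map, List.mem_range]
      exact ⟨a, h3, b, h2, c, h1, rfl⟩
    · ext u
      rw [mem_toSet]
      simp only [Nat.testBit_or, Nat.testBit_two_pow, Bool.or_eq_true, decide_eq_true_eq]
      have hu : u ∈ s ↔ ix u ∈ s.image ix :=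
        ⟨fun h => Finset.mem_image_of_mem _ h, fun h => by
          obtain ⟨v, hv, e⟩ := Finset.mem_image.1 h; exact ix_injective e ▸ hv⟩
      rw [hu, he]; simp [eq_comm, or_assoc]
  have p1 : ({a, b, c} : Finset ℕ) = {a, c, b} := by ext; simp; tauto
  have p2 : ({a, b, c} : Finset ℕ) = {b, a, c} := by ext; simp; tauto
  have p3 : ({a, b, c} : Finset ℕ) = {b, c, a} := by ext; simp; tauto
  have p4 : ({a, b, c} : Finset ℕ) = {c, a, b} := by ext; simp; tauto
  have p5 : ({a, b, c} : Finset ℕ) = {c, b, a} := by ext; simp; tauto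
  rcases Nat.lt_or_gt_of_ne hab with h | h <;> rcases Nat.lt_or_gt_of_ne hac with h' | h' <;>
    rcases Nat.lt_or_gt_of_ne hbc with h'' | h'' <;> first
      | omega
      | exact key a b c (by omega) (by omega) ha he
      | exact key a c b (by omega) (by omega) ha (he.trans p1)
      | exact key b a c (by omega) (by omega) hb (he.trans p2)
      | exact key b c a (by omega) (by omega) hb (he.trans p3)
      | exact key c a b (by omega) (by omega) hc (he.trans p4)
      | exact key c b a (by omega) (by omega) hc (he.trans p5)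

theorem maxOct_ok : maxOk pimg (· % 4096) enc octL MaxOct.gens oct0 MaxOct.certs = true := by
  decide +kernel

theorem maxDuad_ok : maxOk pimg smallKey smallUnkey duadL MaxDuad.gens 3 MaxDuad.certs = true := by
  decide +kernel

theorem maxTriad_ok : maxOk pimg smallKey smallUnkey triadL MaxTriad.gens 7 MaxTriad.certs = true := by
  decide +kernel

theorem maxDpair_ok : maxOk (fun p m => pairCanon (pimg p m)) (· % 4096) enc pairL MaxDpair.gens dod0
    MaxDpair.certs = true := by
  decide +kernel

theorem isCoatom_octad {o : Finset GolayPt} (ho : o ∈ octads) :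
    IsCoatom (MulAction.stabilizer M24 o) := by
  obtain ⟨g, hg, rfl⟩ := exists_map_octad ho
  refine isCoatom_stabilizer_smul (isCoatom_of_maxOk maxOct_ok toSet
    (fun p hp x => (toSet_pimg hp x).symm) (fun v hv => ?_) ?_) hg
  · obtain ⟨m, hm, e⟩ := mem_octads_list.1 ((smul_mem_octads hv).2 oct0_mem)
    exact ⟨m, hm, e.symm⟩
  · obtain ⟨m, hm, hne⟩ : ∃ m ∈ octL, m &&& oct0 ≠ oct0 := by decide +kernel
    obtain ⟨v, hv, e⟩ := exists_map_octad (o := toSet m) (mem_octads_list.2 ⟨m, hm, rfl⟩)
    refine ⟨v, hv, fun e' => hne ?_⟩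
    have := toSet_inj (class_lt 8 _ octL_eq hm) (by decide +kernel) (e.symm.trans e')
    rw [this, Nat.and_self]

theorem isCoatom_duad {s : Finset GolayPt} (hs : s.card = 2) :
    IsCoatom (MulAction.stabilizer M24 s) := by
  have h0 : (toSet 3).card = 2 := by decide +kernel
  obtain ⟨g, hg, rfl⟩ := exists_map_finset (s := toSet 3) (by omega) (h0.trans hs.symm)
  refine isCoatom_stabilizer_smul (isCoatom_of_maxOk maxDuad_ok toSet
    (fun p hp x => (toSet_pimg hp x).symm) (fun v hv => ?_) ?_) hg
  · obtain ⟨m, hm, e⟩ := exists_duad (s := v • toSet 3) (by rw [Finset.card_smul_finset]; exact h0)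
    exact ⟨m, hm, e.symm⟩
  · obtain ⟨v, hv, e⟩ := exists_map_finset (s := toSet 3) (t := toSet 5) (by omega) (by decide +kernel)
    exact ⟨v, hv, fun e' => absurd (e.symm.trans e') (by decide +kernel)⟩

theorem isCoatom_triad {s : Finset GolayPt} (hs : s.card = 3) :
    IsCoatom (MulAction.stabilizer M24 s) := by
  have h0 : (toSet 7).card = 3 := by decide +kernel
  obtain ⟨g, hg, rfl⟩ := exists_map_finset (s := toSet 7) (by omega) (h0.trans hs.symm)
  refine isCoatom_stabilizer_smul (isCoatom_of_maxOk maxTriad_ok toSet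
    (fun p hp x => (toSet_pimg hp x).symm) (fun v hv => ?_) ?_) hg
  · obtain ⟨m, hm, e⟩ := exists_triad (s := v • toSet 7) (by rw [Finset.card_smul_finset]; exact h0)
    exact ⟨m, hm, e.symm⟩
  · obtain ⟨v, hv, e⟩ := exists_map_finset (s := toSet 7) (t := toSet 11) (by omega) (by decide +kernel)
    exact ⟨v, hv, fun e' => absurd (e.symm.trans e') (by decide +kernel)⟩

/-- The pair of complementary sets of a mask. -/
def pairRep (m : ℕ) : Finset (Finset GolayPt) := {toSet m, (toSet m)ᶜ}

theorem pairRep_canon (m : ℕ) : pairRep (pairCanon m) = pairRep m := by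
  unfold pairCanon
  split
  · rfl
  · have e : toSet (m ^^^ 16777215) = (toSet m)ᶜ := by
      ext u
      simp [mem_toSet, Nat.testBit_xor, testBit_full _ (ix_lt u)]
    rw [pairRep, pairRep, e, compl_compl, Finset.pair_comm]

theorem smul_pairRep {p : ℕ} (hp : okPerm p = true) (m : ℕ) :
    toPerm p • pairRep m = pairRep (pimg p m) := by
  rw [pairRep, pairRep, toSet_pimg hp, Finset.smul_finset_insert, Finset.smul_finset_singleton]
  congr 2
  rw [Finset.compl_eq_univ_sdiff, Finset.compl_eq_univ_sdiff, Finset.smul_finset_sdiff,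
    Finset.smul_finset_univ]

theorem isCoatom_dodecad_pair {d : Finset GolayPt} (hd : d ∈ dodecads) :
    IsCoatom (MulAction.stabilizer M24 ({d, dᶜ} : Finset (Finset GolayPt))) := by
  obtain ⟨g, hg, rfl⟩ := exists_map_dodecad hd
  have e : ∀ v : Equiv.Perm GolayPt, ({v • toSet dod0, (v • toSet dod0)ᶜ} : Finset (Finset GolayPt)) =
      v • pairRep dod0 := fun v => by
    rw [pairRep, Finset.smul_finset_insert, Finset.smul_finset_singleton, Finset.compl_eq_univ_sdiff,
      Finset.compl_eq_univ_sdiff, Finset.smul_finset_sdiff, Finset.smul_finset_univ]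
  rw [e g]
  refine isCoatom_stabilizer_smul (isCoatom_of_maxOk maxDpair_ok pairRep
    (fun p hp x => by rw [smul_pairRep hp, pairRep_canon]) (fun v hv => ?_) ?_) hg
  · obtain ⟨m, hm, hme⟩ := mem_dodecads_list.1 ((smul_mem_dodecads hv).2 dod0_mem)
    refine ⟨pairCanon m, ?_, ?_⟩
    · have hc : ∀ m ∈ dodL, (pairL.contains (pairCanon m)) = true := by
        have h : dodL.all (fun m => (pairCanon m).testBit 0 && inCode (pairCanon m) &&
            pc (pairCanon m) == 12) = true := by decide +kernel
        simp only [List.all_eq_true, Bool.and_eq_true, beq_iff_eq] at h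
        intro m hm
        obtain ⟨⟨h1, h2⟩, h3⟩ := h m hm
        rw [List.contains_iff_mem, pairL, List.mem_filter]
        exact ⟨(mem_class 12 _ dodL_eq (inCode_lt h2)).2 ⟨h2, h3⟩, h1⟩
      exact List.contains_iff_mem.1 (hc m hm)
    · rw [pairRep_canon, ← e v, ← hme]; rfl
  · obtain ⟨m, hm, hne⟩ : ∃ m ∈ dodL, m ≠ dod0 ∧ m ≠ dod0 ^^^ 16777215 := by decide +kernel
    obtain ⟨v, hv, hve⟩ := exists_map_dodecad (d := toSet m) (mem_dodecads_list.2 ⟨m, hm, rfl⟩)
    refine ⟨v, hv, fun h => ?_⟩
    have hlt := class_lt 12 _ dodL_eq hm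
    rw [← e v, hve, pairRep] at h
    have hin : toSet m ∈ ({toSet dod0, (toSet dod0)ᶜ} : Finset (Finset GolayPt)) := by rw [← h]; simp
    have ec : (toSet dod0)ᶜ = toSet (dod0 ^^^ 16777215) := by decide +kernel
    rw [ec, Finset.mem_insert, Finset.mem_singleton] at hin
    rcases hin with h' | h'
    · exact hne.1 (toSet_inj hlt (by decide +kernel) h')
    · exact hne.2 (toSet_inj hlt (by decide +kernel) h')

end Cfsg.Agent.M24
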