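import Cfsg.Agent.M24.Trans
import Cfsg.Agent.M24.Order

/-!
The pointwise stabiliser of an octad.
-/

set_option autoImplicit false

namespace Cfsg.Agent.M24

open scoped Pointwise

theorem stab_six_eq : stab 6 = M24 ⊓ fixingSubgroup (Equiv.Perm GolayPt) (toSet oct0 : Set GolayPt) := by
  have hfix : (List.range 24).all (fun b => !(oct0.testBit b) ||
      (trans.getD 6 []).all fun p => papp p b == b) = true := by decide +kernel
  simp only [List.all_eq_true, List.mem_range, Bool.or_eq_true, Bool.not_eq_true', beq_iff_eq] at hfix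
  ext g
  rw [Subgroup.mem_inf, mem_fixingSubgroup_iff, mem_stab (by norm_num : 6 ≤ 7)]
  constructor
  · rintro ⟨h1, h2⟩
    refine ⟨h1, fun x hx => ?_⟩
    have hy := base_orbit_bound h1 (by norm_num : 6 < 7) h2
    have htr := trans_orbs
    simp only [List.all_eq_true, List.mem_range, beq_iff_eq] at htr
    rw [← htr 6 (by norm_num), List.mem_map] at hy
    obtain ⟨p, hp, hpy⟩ := hy
    obtain ⟨hA, hS⟩ := trans_spec (k := 6) (by norm_num) hp
    have h7 : (toPerm p)⁻¹ * g ∈ stab 7 := by
      refine ⟨(stab 6).mul_mem ((stab 6).inv_mem hS) ((mem_stab (by norm_num)).2 ⟨h1, h2⟩),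
        MulAction.mem_stabilizer_iff.2 ?_⟩
      rw [mul_smul, inv_smul_eq_iff, Equiv.Perm.smul_def, Equiv.Perm.smul_def,
        toPerm_pt (autB_ok hA) (by decide +kernel), hpy, pt_ix]
    rw [stab_seven, Subgroup.mem_bot, inv_mul_eq_one] at h7
    rw [← h7, Equiv.Perm.smul_def, toPerm_apply (autB_ok hA)]
    have hbit : oct0.testBit (ix x) = true := mem_toSet.1 (Finset.mem_coe.1 hx)
    rcases hfix (ix x) (ix_lt x) with h | h
    · rw [hbit] at h; exact absurd h (by simp)
    · rw [h p hp, pt_ix]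
  · rintro ⟨h1, h2⟩
    refine ⟨h1, fun b hb => h2 (pt b) ?_⟩
    have : ∀ b ∈ base.take 6, pt b ∈ toSet oct0 := by decide +kernel
    exact this b hb

theorem octad_fixer {g : Equiv.Perm GolayPt} (hg : g ∈ M24) :
    Nat.card ↥(M24 ⊓ fixingSubgroup (Equiv.Perm GolayPt) ((g • toSet oct0 : Finset GolayPt) : Set GolayPt))
      = 16 ∧ ∀ v ∈ M24 ⊓ fixingSubgroup (Equiv.Perm GolayPt)
        ((g • toSet oct0 : Finset GolayPt) : Set GolayPt), v * v = 1 := by
  have hconj : ∀ v, v ∈ M24 ⊓ fixingSubgroup (Equiv.Perm GolayPt)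
      ((g • toSet oct0 : Finset GolayPt) : Set GolayPt) ↔ g⁻¹ * v * g ∈ stab 6 := by
    intro v
    rw [stab_six_eq, Subgroup.mem_inf, Subgroup.mem_inf, mem_fixingSubgroup_iff, mem_fixingSubgroup_iff]
    refine and_congr ⟨fun h => M24.mul_mem (M24.mul_mem (M24.inv_mem hg) h) hg, fun h => ?_⟩
      ⟨fun h x hx => ?_, fun h y hy => ?_⟩
    · have := M24.mul_mem (M24.mul_mem hg h) (M24.inv_mem hg)
      simpa [mul_assoc] using this
    · rw [mul_smul, mul_smul, h (g • x) (Finset.mem_coe.2 (Finset.smul_mem_smul_finset hx)), inv_smul_smul]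
    · obtain ⟨x, hx, rfl⟩ := Finset.mem_smul_finset.1 (Finset.mem_coe.1 hy)
      have := h x hx
      rwa [mul_smul, mul_smul, inv_smul_eq_iff] at this
  constructor
  · have h16 : Nat.card (stab 6) = 16 := by
      rw [card_stab_succ (by norm_num), stab_seven]
      simp only [Nat.card_unique, mul_one]
      decide +kernel
    rw [← h16]
    exact Nat.card_congr
      { toFun := fun v => ⟨g⁻¹ * v.1 * g, (hconj v.1).1 v.2⟩
        invFun := fun v => ⟨g * v.1 * g⁻¹, (hconj _).2 (by simp [mul_assoc])⟩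
        left_inv := fun v => Subtype.ext (by simp [mul_assoc])
        right_inv := fun v => Subtype.ext (by simp [mul_assoc]) }
  · intro v hv
    have h6 := (hconj v).1 hv
    obtain ⟨h1, h2⟩ := (mem_stab (by norm_num : 6 ≤ 7)).1 h6
    have hy := base_orbit_bound h1 (by norm_num : 6 < 7) h2
    have htr := trans_orbs
    simp only [List.all_eq_true, List.mem_range, beq_iff_eq] at htr
    rw [← htr 6 (by norm_num), List.mem_map] at hy
    obtain ⟨p, hp, hpy⟩ := hy
    obtain ⟨hA, hS⟩ := trans_spec (k := 6) (by norm_num) hp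
    have h7 : (toPerm p)⁻¹ * (g⁻¹ * v * g) ∈ stab 7 := by
      refine ⟨(stab 6).mul_mem ((stab 6).inv_mem hS) h6, MulAction.mem_stabilizer_iff.2 ?_⟩
      rw [mul_smul, inv_smul_eq_iff, Equiv.Perm.smul_def, Equiv.Perm.smul_def,
        toPerm_pt (autB_ok hA) (by decide +kernel), hpy, pt_ix]
    rw [stab_seven, Subgroup.mem_bot, inv_mul_eq_one] at h7
    have hsq : (trans.getD 6 []).all (fun p => (List.range 24).all fun i => papp p (papp p i) == i) = true := by
      decide +kernel
    simp only [List.all_eq_true, List.mem_range, beq_iff_eq] at hsq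
    have e2 : toPerm p * toPerm p = 1 := Equiv.ext fun x => by
      rw [Equiv.Perm.mul_apply, toPerm_apply (autB_ok hA) x,
        toPerm_pt (autB_ok hA) (okPerm_lt (autB_ok hA) (ix_lt x)), hsq p hp _ (ix_lt x), pt_ix]
      rfl
    rw [h7] at e2
    calc v * v = g * ((g⁻¹ * v * g) * (g⁻¹ * v * g)) * g⁻¹ := by group
      _ = 1 := by rw [e2]; group

end Cfsg.Agent.M24
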