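import Cfsg.Agent.M24.Trans

/-!
An octad with two marked points.
-/

set_option autoImplicit false

namespace Cfsg.Agent.M24

open scoped Pointwise

/-- layer data -/
def octTwoInL0P0 : List (List ℕ) := [[0, 1]]

/-- layer data -/
def octTwoInL1P0 : List (List ℕ) := [[0], [0, 1]]

/-- layer data -/
def octTwoInL2P0 : List (List ℕ) := [[1], [], []]

/-- An orbit certificate. -/
def octTwoIn : Cfsg.Agent.M24.Cert where
  fx := [5279, 1]
  gens := [768041943725906832286596941432891488, 980642634407097512838767483832894848]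
  x0 := 2
  sp := [octTwoInL0P0, octTwoInL1P0, octTwoInL2P0]

/-- layer data -/
def octInOutL0P0 : List (List ℕ) := [[0, 1]]

/-- layer data -/
def octInOutL1P0 : List (List ℕ) := [[0, 1], [1]]

/-- layer data -/
def octInOutL2P0 : List (List ℕ) := [[1], [1], [1]]

/-- layer data -/
def octInOutL3P0 : List (List ℕ) := [[0, 1], [0], [0]]

/-- layer data -/
def octInOutL4P0 : List (List ℕ) := [[0, 1], [], [0], []]

/-- An orbit certificate. -/
def octInOut : Cfsg.Agent.M24.Cert where
  fx := [5279, 1]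
  gens := [853623568804865692162295830698600480, 902710002943494515245849803141483584]
  x0 := 32
  sp := [octInOutL0P0, octInOutL1P0, octInOutL2P0, octInOutL3P0, octInOutL4P0]

theorem octTwoIn_ok : listCheck [2, 4, 8, 16, 128, 1024, 4096] octTwoIn = true := by decide +kernel
theorem octInOut_ok : listCheck [32, 64, 256, 512, 2048, 8192, 16384, 32768, 65536, 131072, 262144, 524288, 1048576, 2097152, 4194304, 8388608] octInOut = true := by decide +kernel

theorem exists_map_octad_two_in {o : Finset GolayPt} (ho : o ∈ octads) {p q : GolayPt}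
    (hp : p ∈ o) (hq : q ∈ o) (hpq : p ≠ q) :
    ∃ g ∈ M24, g • toSet oct0 = o ∧ g (pt 0) = p ∧ g (pt 1) = q := by
  obtain ⟨g, hg, rfl, rfl⟩ := exists_map_octad_pt_mem ho hp
  obtain ⟨i, hi, rfl⟩ := exists_pt g q
  have hne : i ≠ 0 := fun e => hpq (by rw [e])
  have key : ∀ i < 24, i ≠ 0 → oct0.testBit i = true → 2 ^ i ∈ [2, 4, 8, 16, 128, 1024, 4096] := by decide +kernel
  obtain ⟨h, hh, e⟩ := map_point octTwoIn_ok (by norm_num) hi
    (key 1 (by norm_num) (by norm_num) (by decide +kernel))
    (key i hi hne ((mem_smul_toSet g hi _).1 hq))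
  refine ⟨g * h, M24.mul_mem hg hh.1, ?_, ?_, by simp [e]⟩
  · rw [mul_smul, hh.2 oct0 (by decide +kernel)]
  · simp [fixAll_point hh (i := 0) (by norm_num) (by decide +kernel)]

theorem exists_map_octad_in_out {o : Finset GolayPt} (ho : o ∈ octads) {p q : GolayPt}
    (hp : p ∈ o) (hq : q ∉ o) :
    ∃ g ∈ M24, g • toSet oct0 = o ∧ g (pt 0) = p ∧ g (pt 5) = q := by
  obtain ⟨g, hg, rfl, rfl⟩ := exists_map_octad_pt_mem ho hp
  obtain ⟨i, hi, rfl⟩ := exists_pt g q
  have key : ∀ i < 24, oct0.testBit i = false → 2 ^ i ∈ [32, 64, 256, 512, 2048, 8192, 16384, 32768, 65536, 131072, 262144, 524288, 1048576, 2097152, 4194304, 8388608] := by decide +kernel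
  rw [mem_smul_toSet g hi, Bool.not_eq_true] at hq
  obtain ⟨h, hh, e⟩ := map_point octInOut_ok (by norm_num) hi (key 5 (by norm_num) (by decide +kernel))
    (key i hi hq)
  refine ⟨g * h, M24.mul_mem hg hh.1, ?_, ?_, by simp [e]⟩
  · rw [mul_smul, hh.2 oct0 (by decide +kernel)]
  · simp [fixAll_point hh (i := 0) (by norm_num) (by decide +kernel)]

theorem exists_map5_two {p q : GolayPt} (hpq : p ≠ q) : ∃ g ∈ M24, g (pt 0) = p ∧ g (pt 5) = q := by
  have h5 := isMultiplyPretransitive_five
  have hcard : Fintype.card GolayPt = 24 := by decide +kernel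
  have := MulAction.isMultiplyPretransitive_of_le (G := M24) (α := GolayPt) (n := 5) (m := 2)
    (by norm_num) (by rw [Nat.card_eq_fintype_card, hcard]; norm_num)
  obtain ⟨g, hg⟩ := MulAction.is_two_pretransitive_iff.1 this
    (show pt 0 ≠ pt 5 by decide +kernel) hpq
  exact ⟨g.1, g.2, hg.1, hg.2⟩

end Cfsg.Agent.M24
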