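import Cfsg.Agent.M24.Maximal
import Cfsg.Agent.M24.Canon
import Cfsg.Agent.M24.SmallOrbData

/-!
Orbits of small sets under small-set stabilisers.
-/

set_option autoImplicit false

namespace Cfsg.Agent.M24

open scoped Pointwise

/-- One orbit of small sets. -/
def orbOk (fx gens : List ℕ) (y : ℕ) (sp : List (List (List ℕ))) (L : List ℕ) : Bool :=
  gens.all (fun p => autB p && fx.all fun m => pimg p m == m) && specOk gens sp &&
    coverB smallKey smallUnkey L (actLayers pimg gens [y] sp)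

theorem map_of_orbOk {fx gens : List ℕ} {y : ℕ} {sp : List (List (List ℕ))} {L : List ℕ}
    (h : orbOk fx gens y sp L = true) {a b : ℕ} (ha : a ∈ L) (hb : b ∈ L) :
    ∃ g ∈ fixAll fx, g • toSet a = toSet b := by
  simp only [orbOk, Bool.and_eq_true, List.all_eq_true, beq_iff_eq] at h
  obtain ⟨⟨hg, hs⟩, hc⟩ := h
  have key : ∀ x ∈ L, InOrb toSet (fixAll fx) y x := fun x hx =>
    actLayers_mem (K := fixAll fx) (gens := gens) (fun p hp z => (toSet_pimg hp z).symm)
      (fun p hp => ⟨autB_ok (hg p hp).1, toPerm_mem (hg p hp).1, fun m hm => by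
        rw [← toSet_pimg (autB_ok (hg p hp).1), (hg p hp).2 m hm]⟩) sp [y]
      (fun z hz => ⟨1, one_mem _, by rw [one_smul, List.mem_singleton.1 hz]⟩) hs x (mem_of_coverB hc hx)
  obtain ⟨u, hu, hua⟩ := key a ha
  obtain ⟨v, hv, hvb⟩ := key b hb
  exact ⟨v * u⁻¹, (fixAll fx).mul_mem hv ((fixAll fx).inv_mem hu), by
    rw [← hua, mul_smul, inv_smul_smul, hvb]⟩

/-- Some octad contains the mask. -/
def inOctB (m : ℕ) : Bool := octL.any fun o => m &&& o == m

theorem toSet_subset {a b : ℕ} (ha : a < 2 ^ 24) : toSet a ⊆ toSet b ↔ a &&& b = a := by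
  rw [← Finset.inter_eq_left, ← toSet_and]
  exact ⟨fun h => toSet_inj (lt_of_le_of_lt Nat.and_le_left ha) ha h, fun h => by rw [h]⟩

theorem exists_octad_iff {g : Equiv.Perm GolayPt} (hg : g ∈ M24) {m : ℕ} (hm : m < 2 ^ 24) :
    (∃ o ∈ octads, g • toSet m ⊆ o) ↔ inOctB m = true := by
  simp only [inOctB, List.any_eq_true, beq_iff_eq]
  constructor
  · rintro ⟨o, ho, h⟩
    obtain ⟨x, hx, rfl⟩ := exists_octad hg ho
    rw [Finset.smul_finset_subset_smul_finset_iff, toSet_subset hm] at h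
    exact ⟨x, hx, h⟩
  · rintro ⟨x, hx, h⟩
    exact ⟨g • toSet x, (smul_mem_octads hg).2 (mem_octads_list.2 ⟨x, hx, rfl⟩),
      Finset.smul_finset_subset_smul_finset_iff.2 ((toSet_subset hm).2 h)⟩

theorem lt_of_small {L : List ℕ} (h : L.all (fun m => decide (m < 2 ^ 24)) = true) :
    ∀ m ∈ L, m < 2 ^ 24 := by simpa [List.all_eq_true] using h

end Cfsg.Agent.M24
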