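import Cfsg.Agent.M24.Orders
import Cfsg.Agent.M24.Facts

/-!
Orbit certificates for arbitrary actions of `Cfsg.M24` described on keys, and maximality of stabilisers.
-/

set_option autoImplicit false

namespace Cfsg.Agent.M24

open scoped Pointwise

/-- One layer of an orbit. -/
def actLayer (act : ℕ → ℕ → ℕ) (gens : List ℕ) : List ℕ → List (List ℕ) → List ℕ
  | x :: xs, gs :: gss => gs.map (fun k => act (gens.getD k 0) x) ++ actLayer act gens xs gss
  | _, _ => []

/-- An orbit layer by layer. -/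
def actLayers (act : ℕ → ℕ → ℕ) (gens : List ℕ) : List ℕ → List (List (List ℕ)) → List ℕ
  | cur, [] => cur
  | cur, sp :: rest => cur ++ actLayers act gens (actLayer act gens cur sp) rest

/-- A bit set of keys. -/
def keyBits (key : ℕ → ℕ) : List ℕ → ℕ
  | [] => 0
  | m :: l => 2 ^ key m ||| keyBits key l

theorem testBit_keyBits (key : ℕ → ℕ) (k : ℕ) :
    ∀ l, (keyBits key l).testBit k = true ↔ ∃ m ∈ l, key m = k
  | [] => by simp [keyBits]
  | m :: l => by simp [keyBits, Nat.testBit_or, testBit_keyBits key k l, Nat.testBit_two_pow]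

/-- `L` is covered by `el`. -/
def coverB (key unkey : ℕ → ℕ) (L el : List ℕ) : Bool :=
  L.all (fun m => unkey (key m) == m) && el.all (fun m => unkey (key m) == m) &&
    (keyBits key L &&& keyBits key el) == keyBits key L

theorem mem_of_coverB {key unkey : ℕ → ℕ} {L el : List ℕ} (h : coverB key unkey L el = true) {m : ℕ}
    (hm : m ∈ L) : m ∈ el := by
  simp only [coverB, Bool.and_eq_true, List.all_eq_true, beq_iff_eq] at h
  obtain ⟨⟨hL, hel⟩, hb⟩ := h
  have h1 := (testBit_keyBits key (key m) L).2 ⟨m, hm, rfl⟩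
  rw [← hb, Nat.testBit_and, Bool.and_eq_true, testBit_keyBits, testBit_keyBits] at h1
  obtain ⟨-, x, hx, e⟩ := h1
  have e' := congrArg unkey e
  rw [hel x hx, hL m hm] at e'
  exact e' ▸ hx

variable {α : Type*} [MulAction (Equiv.Perm GolayPt) α]

/-- Elements of the orbit under a subgroup. -/
def InOrb (rep : ℕ → α) (K : Subgroup (Equiv.Perm GolayPt)) (x0 x : ℕ) : Prop :=
  ∃ g ∈ K, g • rep x0 = rep x

theorem actLayer_mem {act : ℕ → ℕ → ℕ} {rep : ℕ → α}
    (hact : ∀ p, okPerm p = true → ∀ x, toPerm p • rep x = rep (act p x))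
    {K : Subgroup (Equiv.Perm GolayPt)} {gens : List ℕ}
    (hg : ∀ p ∈ gens, okPerm p = true ∧ toPerm p ∈ K) {x0 : ℕ} :
    ∀ (cur : List ℕ) (sp : List (List ℕ)), (∀ x ∈ cur, InOrb rep K x0 x) →
      (∀ gs ∈ sp, ∀ k ∈ gs, k < gens.length) → ∀ y ∈ actLayer act gens cur sp, InOrb rep K x0 y
  | [], _, _, _, y, hy => by simp [actLayer] at hy
  | _ :: _, [], _, _, y, hy => by simp [actLayer] at hy
  | x :: xs, gs :: gss, hx, hk, y, hy => by
    simp only [actLayer, List.mem_append, List.mem_map] at hy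
    rcases hy with ⟨k, hk', rfl⟩ | hy
    · obtain ⟨g, hgm, hgx⟩ := hx x List.mem_cons_self
      have hkl := hk gs List.mem_cons_self k hk'
      obtain ⟨hok, hp⟩ := hg (gens.getD k 0) (by
        rw [List.getD_eq_getElem _ _ hkl]; exact List.getElem_mem hkl)
      exact ⟨toPerm (gens.getD k 0) * g, K.mul_mem hp hgm, by rw [mul_smul, hgx, hact _ hok]⟩
    · exact actLayer_mem hact hg xs gss (fun z hz => hx z (List.mem_cons_of_mem _ hz))
        (fun g' hg' => hk g' (List.mem_cons_of_mem _ hg')) y hy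

theorem actLayers_mem {act : ℕ → ℕ → ℕ} {rep : ℕ → α}
    (hact : ∀ p, okPerm p = true → ∀ x, toPerm p • rep x = rep (act p x))
    {K : Subgroup (Equiv.Perm GolayPt)} {gens : List ℕ}
    (hg : ∀ p ∈ gens, okPerm p = true ∧ toPerm p ∈ K) {x0 : ℕ} :
    ∀ (sp : List (List (List ℕ))) (cur : List ℕ), (∀ x ∈ cur, InOrb rep K x0 x) →
      specOk gens sp = true → ∀ y ∈ actLayers act gens cur sp, InOrb rep K x0 y
  | [], cur, hx, _, y, hy => hx y hy
  | l :: rest, cur, hx, hs, y, hy => by
    simp only [specOk, List.all_cons, Bool.and_eq_true] at hs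
    simp only [actLayers, List.mem_append] at hy
    rcases hy with hy | hy
    · exact hx y hy
    · refine actLayers_mem hact hg rest _ (actLayer_mem hact hg cur l hx ?_) hs.2 y hy
      simpa [List.all_eq_true] using hs.1

/-- A suborbit: representative, mover, layers of the suborbit, layers of the whole class. -/
structure SubCert where
  /-- representative -/
  y : ℕ
  /-- an element moving the base to the representative -/
  r : ℕ
  /-- the suborbit -/
  sp : List (List (List ℕ))
  /-- the whole class -/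
  full : List (List (List ℕ))

/-- Certificate that the stabiliser of `x0` is maximal. -/
def maxOk (act : ℕ → ℕ → ℕ) (key unkey : ℕ → ℕ) (L gens : List ℕ) (x0 : ℕ) (cs : List SubCert) : Bool :=
  gens.all (fun p => autB p && act p x0 == x0) &&
  cs.all (fun c => autB c.r && act c.r x0 == c.y && specOk gens c.sp &&
    specOk (gens ++ [c.r]) c.full && coverB key unkey L (actLayers act (gens ++ [c.r]) [x0] c.full)) &&
  coverB key unkey L (x0 :: cs.flatMap fun c => actLayers act gens [c.y] c.sp)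

theorem isCoatom_of_maxOk {act : ℕ → ℕ → ℕ} {key unkey : ℕ → ℕ} {L gens : List ℕ} {x0 : ℕ}
    {cs : List SubCert} (h : maxOk act key unkey L gens x0 cs = true) (rep : ℕ → α)
    (hact : ∀ p, okPerm p = true → ∀ x, toPerm p • rep x = rep (act p x))
    (hL : ∀ g ∈ M24, ∃ m ∈ L, g • rep x0 = rep m) (hne : ∃ g ∈ M24, g • rep x0 ≠ rep x0) :
    IsCoatom (MulAction.stabilizer M24 (rep x0)) := by
  simp only [maxOk, Bool.and_eq_true, List.all_eq_true, beq_iff_eq] at h
  obtain ⟨⟨hgens, hcs⟩, hcov⟩ := h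
  refine ⟨fun e => ?_, fun K hK => ?_⟩
  · obtain ⟨g, hg, hgne⟩ := hne
    have : (⟨g, hg⟩ : M24) ∈ MulAction.stabilizer M24 (rep x0) := e ▸ Subgroup.mem_top _
    exact hgne this
  · obtain ⟨hle, hnle⟩ := SetLike.lt_iff_le_and_exists.1 hK
    obtain ⟨g, hgK, hgH⟩ := hnle
    obtain ⟨m, hm, hgm⟩ := hL g g.2
    have hmne : m ≠ x0 := fun e => hgH (MulAction.mem_stabilizer_iff.2 (by
      show (g : Equiv.Perm GolayPt) • rep x0 = rep x0
      rw [hgm, e]))
    have hmem := mem_of_coverB hcov hm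
    rw [List.mem_cons, List.mem_flatMap] at hmem
    obtain ⟨c, hc, hmc⟩ := hmem.resolve_left hmne
    obtain ⟨⟨⟨⟨hr, hry⟩, hsp⟩, hfull⟩, hcovfull⟩ := hcs c hc
    set K' := K.map M24.subtype with hK'
    have hgensK : ∀ p ∈ gens, okPerm p = true ∧ toPerm p ∈ K' := fun p hp => by
      obtain ⟨ha, hfix⟩ := hgens p hp
      refine ⟨autB_ok ha, ⟨⟨_, toPerm_mem ha⟩, hle (MulAction.mem_stabilizer_iff.2 ?_), rfl⟩⟩
      show toPerm p • rep x0 = rep x0
      rw [hact _ (autB_ok ha), hfix]
    obtain ⟨u, hu, hum⟩ := actLayers_mem (K := K') hact hgensK c.sp [c.y]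
      (fun x hx => ⟨1, one_mem _, by rw [one_smul, List.mem_singleton.1 hx]⟩) hsp m hmc
    have hrK : toPerm c.r ∈ K' := by
      obtain ⟨u', hu', rfl⟩ := hu
      have hs : g⁻¹ * u' * ⟨_, toPerm_mem hr⟩ ∈ MulAction.stabilizer M24 (rep x0) := by
        rw [MulAction.mem_stabilizer_iff]
        show ((g : Equiv.Perm GolayPt)⁻¹ * (u' : Equiv.Perm GolayPt) * toPerm c.r) • rep x0 = rep x0
        rw [mul_smul, mul_smul, hact _ (autB_ok hr), hry]
        have : (u' : Equiv.Perm GolayPt) • rep c.y = rep m := hum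
        rw [this, ← hgm, inv_smul_smul]
      have h2 : (⟨_, toPerm_mem hr⟩ : M24) ∈ K := by
        have := K.mul_mem (K.mul_mem (K.inv_mem hu') hgK) (hle hs)
        simpa [mul_assoc] using this
      exact ⟨_, h2, rfl⟩
    have hgensr : ∀ p ∈ gens ++ [c.r], okPerm p = true ∧ toPerm p ∈ K' := fun p hp => by
      rcases List.mem_append.1 hp with hp | hp
      · exact hgensK p hp
      · rw [List.mem_singleton.1 hp]; exact ⟨autB_ok hr, hrK⟩
    rw [eq_top_iff]
    intro v _
    obtain ⟨n, hn, hvn⟩ := hL v v.2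
    obtain ⟨w, hw, hwn⟩ := actLayers_mem (K := K') hact hgensr c.full [x0]
      (fun x hx => ⟨1, one_mem _, by rw [one_smul, List.mem_singleton.1 hx]⟩) hfull n
      (mem_of_coverB hcovfull hn)
    obtain ⟨w', hw', rfl⟩ := hw
    have hs : w'⁻¹ * v ∈ MulAction.stabilizer M24 (rep x0) := by
      rw [MulAction.mem_stabilizer_iff]
      show ((w' : Equiv.Perm GolayPt)⁻¹ * (v : Equiv.Perm GolayPt)) • rep x0 = rep x0
      rw [mul_smul, hvn, inv_smul_eq_iff]
      exact hwn.symm
    have := K.mul_mem hw' (hle hs)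
    rwa [mul_inv_cancel_left] at this

theorem isCoatom_stabilizer_smul {β : Type*} [MulAction (Equiv.Perm GolayPt) β] {a : β}
    (h : IsCoatom (MulAction.stabilizer M24 a)) {g : Equiv.Perm GolayPt} (hg : g ∈ M24) :
    IsCoatom (MulAction.stabilizer M24 (g • a)) := by
  have e : MulAction.stabilizer M24 (g • a) =
      (MulAction.stabilizer M24 a).map (MulAut.conj (⟨g, hg⟩ : M24)).toMonoidHom :=
    MulAction.stabilizer_smul_eq_stabilizer_map_conj (⟨g, hg⟩ : M24) a
  rw [e]
  exact ((MulEquiv.mapSubgroup (MulAut.conj (⟨g, hg⟩ : M24))).isCoatom_iff _).2 h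

end Cfsg.Agent.M24
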